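import Mathlib.LinearAlgebra.Matrix.ProjectiveSpecialLinearGroup
import Mathlib.LinearAlgebra.Matrix.Block
import Mathlib.GroupTheory.SemidirectProduct
import Mathlib.GroupTheory.SpecificGroups.Cyclic
import Mathlib.Data.ZMod.Basic
import Mathlib.Algebra.Field.ZMod
import Mathlib.Tactic.Abel
import Mathlib.Tactic.LinearCombination

/-! A group of order `2 p ^ 3` with modules of every large dimension having only scalar endomorphisms. -/

set_option autoImplicit false
set_option maxHeartbeats 400000

namespace Cfsg.Agent.KnownB.Brick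

open Matrix

universe u

variable {K : Type u} [Field K]

/-- The three arrows from the top block to the bottom block. -/
def nMat (m : ℕ) (v : Fin 3 → K) : Matrix (Fin (2 * m + 1)) (Fin (2 * m + 1)) K :=
  Matrix.of fun i j => if (j : ℕ) < m then ∑ k : Fin 3, if (i : ℕ) = m + j + k then v k else 0 else 0

/-- The sign matrix. -/
def sMat (m : ℕ) : Matrix (Fin (2 * m + 1)) (Fin (2 * m + 1)) K :=
  Matrix.diagonal fun i => if (i : ℕ) < m then -1 else 1

theorem nMat_mul (m : ℕ) (v w : Fin 3 → K) : nMat m v * nMat m w = 0 := by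
  ext i j
  rw [Matrix.mul_apply]
  refine Finset.sum_eq_zero fun l _ => ?_
  by_cases hl : (l : ℕ) < m
  · have : nMat m w l j = 0 := by
      simp only [nMat, Matrix.of_apply]
      split_ifs
      · exact Finset.sum_eq_zero fun k _ => if_neg (by omega)
      · rfl
    rw [this, mul_zero]
  · simp [nMat, hl]

theorem nMat_add (m : ℕ) (v w : Fin 3 → K) : nMat m (v + w) = nMat m v + nMat m w := by
  ext i j
  simp only [nMat, Matrix.of_apply, Matrix.add_apply, Pi.add_apply]
  split_ifs
  · rw [← Finset.sum_add_distrib]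
    exact Finset.sum_congr rfl fun k _ => by split_ifs <;> simp
  · simp

theorem nMat_top (m : ℕ) (v : Fin 3 → K) {i : Fin (2 * m + 1)} (j : Fin (2 * m + 1)) (hi : (i : ℕ) < m) :
    nMat m v i j = 0 := by
  simp only [nMat, Matrix.of_apply]
  split_ifs
  · exact Finset.sum_eq_zero fun k _ => if_neg (by omega)
  · rfl

theorem nMat_single (m : ℕ) (k : Fin 3) (c : K) (i j : Fin (2 * m + 1)) :
    nMat m (Pi.single k c) i j = if (j : ℕ) < m ∧ (i : ℕ) = m + j + k then c else 0 := by
  simp only [nMat, Matrix.of_apply]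
  by_cases hj : (j : ℕ) < m
  · rw [if_pos hj, Finset.sum_eq_single k]
    · simp [hj]
    · intro l _ hl
      simp [Pi.single_eq_of_ne hl]
    · simp
  · simp [hj]

/-- A matrix commuting with the signs and two arrows is scalar. -/
theorem scalar_of_commute {m : ℕ} (hm : 0 < m) (h2 : (2 : K) ≠ 0)
    (g : Matrix (Fin (2 * m + 1)) (Fin (2 * m + 1)) K)
    (hs : g * sMat m = sMat m * g)
    (hN : ∀ k : Fin 3, g * nMat m (Pi.single k 1) = nMat m (Pi.single k 1) * g) :
    ∃ r : K, g = r • (1 : Matrix (Fin (2 * m + 1)) (Fin (2 * m + 1)) K) := by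
  -- the off-diagonal blocks vanish
  have hoff : ∀ i j : Fin (2 * m + 1), ¬ ((i : ℕ) < m ↔ (j : ℕ) < m) → g i j = 0 := by
    intro i j hij
    have h := congrFun (congrFun hs i) j
    simp only [sMat, Matrix.mul_diagonal, Matrix.diagonal_mul] at h
    by_cases hi : (i : ℕ) < m <;> by_cases hj : (j : ℕ) < m <;> simp [hi, hj] at hij h
    · exact (mul_eq_zero.mp (show (2 : K) * g i j = 0 by linear_combination h)).resolve_left h2
    · exact (mul_eq_zero.mp (show (2 : K) * g i j = 0 by linear_combination -h)).resolve_left h2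
  let b : ℕ → ℕ → K := fun i j =>
    if h : i ≤ m ∧ j ≤ m then g ⟨m + i, by omega⟩ ⟨m + j, by omega⟩ else 0
  let a : ℕ → ℕ → K := fun i j =>
    if h : i < m ∧ j < m then g ⟨i, by omega⟩ ⟨j, by omega⟩ else 0
  have key : ∀ k : Fin 3, ∀ i j : ℕ, i ≤ m → j < m → j + k ≤ m →
      b i (j + k) = if (k : ℕ) ≤ i ∧ i - k < m then a (i - k) j else 0 := by
    intro k i j hi hj hjk
    have h := congrFun (congrFun (hN k) ⟨m + i, by omega⟩) ⟨j, by omega⟩
    rw [Matrix.mul_apply, Finset.sum_eq_single ⟨m + (j + k), by omega⟩] at h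
    rotate_left
    · intro l _ hl
      rw [nMat_single, if_neg, mul_zero]
      exact fun e => hl (Fin.ext (show (l : ℕ) = m + (j + k) by rw [e.2]; simp; omega))
    · simp
    rw [nMat_single, if_pos ⟨hj, by simp; omega⟩, mul_one] at h
    rw [show b i (j + k) = g ⟨m + i, by omega⟩ ⟨m + (j + k), by omega⟩ from dif_pos ⟨hi, hjk⟩, h,
      Matrix.mul_apply]
    split_ifs with hc
    · rw [Finset.sum_eq_single ⟨i - k, by omega⟩]
      · rw [nMat_single, if_pos ⟨hc.2, by simp; omega⟩, one_mul, show a (i - k) j = _ from dif_pos ⟨hc.2, hj⟩]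
      · intro l _ hl
        rw [nMat_single, if_neg, zero_mul]
        exact fun e => hl (Fin.ext (show (l : ℕ) = i - k by have := e.2; simp at this; omega))
      · simp
    · refine Finset.sum_eq_zero fun l _ => ?_
      rw [nMat_single, if_neg, zero_mul]
      exact fun e => hc (by have := e.2; simp at this; omega)
  have hab : ∀ i j, i < m → j < m → b i j = a i j := fun i j hi hj => by
    simpa [hi] using key 0 i j hi.le hj (by simp; omega)
  have hlast : ∀ j, j < m → b m j = 0 := fun j hj => by
    simpa using key 0 m j le_rfl hj (by simp; omega)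
  have hfirst : ∀ j, j < m → b 0 (j + 1) = 0 := fun j hj => by
    simpa using key 1 0 j (Nat.zero_le _) hj (by simp; omega)
  have hshift : ∀ i j, i < m → j < m → b (i + 1) (j + 1) = a i j := fun i j hi hj => by
    simpa [hi] using key 1 (i + 1) j hi hj (by simp; omega)
  have htoep : ∀ i j, i < m → j < m → b (i + 1) (j + 1) = b i j := fun i j hi hj => by
    rw [hshift i j hi hj, hab i j hi hj]
  have hup : ∀ i j, i < j → j ≤ m → b i j = 0 := by
    intro i
    induction i with
    | zero =>
      intro j hj hjm
      obtain ⟨j, rfl⟩ : ∃ j', j = j' + 1 := ⟨j - 1, by omega⟩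
      exact hfirst j (by omega)
    | succ i ih =>
      intro j hj hjm
      obtain ⟨j, rfl⟩ : ∃ j', j = j' + 1 := ⟨j - 1, by omega⟩
      rw [htoep i j (by omega) (by omega)]
      exact ih j (by omega) (by omega)
  have hdown : ∀ d i j, i + d = m → j < i → b i j = 0 := by
    intro d
    induction d with
    | zero => intro i j hi hj; rw [show i = m by omega]; exact hlast j (by omega)
    | succ d ih =>
      intro i j hi hj
      rw [← htoep i j (by omega) (by omega)]
      exact ih (i + 1) (j + 1) (by omega) (by omega)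
  have hdiag : ∀ i, i ≤ m → b i i = b 0 0 := by
    intro i
    induction i with
    | zero => intro _; rfl
    | succ i ih => intro hi; rw [htoep i i (by omega) (by omega), ih (by omega)]
  have hb : ∀ i j, i ≤ m → j ≤ m → b i j = if i = j then b 0 0 else 0 := fun i j hi hj => by
    rcases lt_trichotomy i j with h | rfl | h
    · rw [if_neg h.ne, hup i j h hj]
    · rw [if_pos rfl, hdiag i hi]
    · rw [if_neg h.ne', hdown (m - i) i j (by omega) h]
  refine ⟨b 0 0, ?_⟩
  ext i j
  rw [Matrix.smul_apply, Matrix.one_apply, smul_eq_mul, mul_ite, mul_one, mul_zero]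
  by_cases hi : (i : ℕ) < m <;> by_cases hj : (j : ℕ) < m
  · have h1 : g i j = a i j := by rw [show a i j = _ from dif_pos ⟨hi, hj⟩]
    rw [h1, ← hab i j hi hj, hb i j hi.le hj.le]
    simp [Fin.ext_iff]
  · rw [hoff i j (by tauto), if_neg]
    rintro rfl; exact hj hi
  · rw [hoff i j (by tauto), if_neg]
    rintro rfl; exact hi hj
  · have h1 : g i j = b (i - m) (j - m) := by
      rw [show b (i - m) (j - m) = _ from dif_pos ⟨by omega, by omega⟩]
      congr 1 <;> exact Fin.ext (by simp; omega)
    rw [h1, hb _ _ (by omega) (by omega)]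
    exact if_congr ⟨fun h => Fin.ext (by omega), fun h => by rw [h]⟩ rfl rfl

section Group

variable (p : ℕ) [Fact p.Prime]

/-- The sign action. -/
def act : ℤˣ →* MulAut (Multiplicative (Fin 3 → ZMod p)) where
  toFun s :=
    { toFun := fun v => Multiplicative.ofAdd ((s : ℤ) • Multiplicative.toAdd v)
      invFun := fun v => Multiplicative.ofAdd ((s : ℤ) • Multiplicative.toAdd v)
      left_inv := fun v => by
        simp only [toAdd_ofAdd, smul_smul, ← Units.val_mul, Int.units_mul_self, Units.val_one, one_smul,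
          ofAdd_toAdd]
      right_inv := fun v => by
        simp only [toAdd_ofAdd, smul_smul, ← Units.val_mul, Int.units_mul_self, Units.val_one, one_smul,
          ofAdd_toAdd]
      map_mul' := fun v w => by simp [smul_add] }
  map_one' := MulEquiv.ext fun v => by simp
  map_mul' s t := MulEquiv.ext fun v => by
    simp only [MulEquiv.coe_mk, Equiv.coe_fn_mk, MulAut.mul_apply, toAdd_ofAdd, smul_smul, Units.val_mul]

/-- The group. -/
abbrev Grp : Type := Multiplicative (Fin 3 → ZMod p) ⋊[act p] ℤˣ

theorem card_grp : Nat.card (Grp p) = 2 * p ^ 3 := by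
  rw [SemidirectProduct.card, Nat.card_eq_fintype_card (α := ℤˣ), Fintype.card_units_int,
    Nat.card_congr Multiplicative.toAdd, Nat.card_pi]
  simp [mul_comm]

/-- The unipotent part of the representation. -/
def uSL (m : ℕ) (v : Fin 3 → ZMod p) : SpecialLinearGroup (Fin (2 * m + 1)) (ZMod p) :=
  ⟨1 + nMat m v, by
    rw [Matrix.det_of_isLowerTriangular]
    · refine Finset.prod_eq_one fun i _ => ?_
      simp only [Matrix.add_apply, Matrix.one_apply_eq, nMat, Matrix.of_apply]
      split_ifs
      · rw [Finset.sum_eq_zero fun k _ => if_neg (by omega), add_zero]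
      · rw [add_zero]
    · intro i j hij
      have hij' : (i : ℕ) < j := hij
      simp only [Matrix.add_apply, nMat, Matrix.of_apply, Matrix.one_apply,
        if_neg (show i ≠ j from fun e => by omega)]
      split_ifs
      · rw [Finset.sum_eq_zero fun k _ => if_neg (by omega), add_zero]
      · rw [add_zero]⟩

/-- The unipotent part as a homomorphism. -/
def uHom (m : ℕ) : Multiplicative (Fin 3 → ZMod p) →* SpecialLinearGroup (Fin (2 * m + 1)) (ZMod p) where
  toFun v := uSL p m (Multiplicative.toAdd v)
  map_one' := Subtype.ext (by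
    show (1 : Matrix _ _ (ZMod p)) + nMat m 0 = 1
    simp [nMat, Matrix.ext_iff.symm])
  map_mul' v w := Subtype.ext (by
    show (1 : Matrix _ _ (ZMod p)) + nMat m (Multiplicative.toAdd v + Multiplicative.toAdd w) =
      (1 + nMat m (Multiplicative.toAdd v)) * (1 + nMat m (Multiplicative.toAdd w))
    rw [nMat_add, Matrix.add_mul, Matrix.mul_add, Matrix.mul_add, Matrix.one_mul, Matrix.one_mul, Matrix.mul_one,
      nMat_mul]
    abel)

/-- The sign element. -/
def sSL (m : ℕ) (hm : Even m) : SpecialLinearGroup (Fin (2 * m + 1)) (ZMod p) :=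
  ⟨sMat m, by
    have hc : (Finset.univ.filter fun i : Fin (2 * m + 1) => (i : ℕ) < m).card = m := by
      have h := Fin.card_filter_val_lt (n := 2 * m + 1) (m := m)
      simpa using h.trans (min_eq_right (by omega))
    rw [sMat, Matrix.det_diagonal, Finset.prod_ite, Finset.prod_const, Finset.prod_const_one, mul_one,
      hc, hm.neg_one_pow]⟩

theorem sSL_sq (m : ℕ) (hm : Even m) : sSL p m hm * sSL p m hm = 1 := Subtype.ext (by
  show sMat (K := ZMod p) m * sMat m = 1
  rw [sMat, Matrix.diagonal_mul_diagonal, ← Matrix.diagonal_one]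
  exact congrArg _ (funext fun i => by split_ifs <;> simp))

/-- The sign part as a homomorphism. -/
def sHom (m : ℕ) (hm : Even m) : ℤˣ →* SpecialLinearGroup (Fin (2 * m + 1)) (ZMod p) where
  toFun s := if s = 1 then 1 else sSL p m hm
  map_one' := if_pos rfl
  map_mul' s t := by
    rcases Int.units_eq_one_or s with rfl | rfl <;> rcases Int.units_eq_one_or t with rfl | rfl <;>
      simp [sSL_sq]

theorem sMat_conj (m : ℕ) (v : Fin 3 → ZMod p) :
    sMat m * (1 + nMat m v) = (1 + nMat m (-v)) * sMat (K := ZMod p) m := by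
  ext i j
  simp only [sMat, Matrix.diagonal_mul, Matrix.mul_diagonal, Matrix.add_apply]
  by_cases hij : i = j
  · subst hij
    have h0 : ∀ w : Fin 3 → ZMod p, nMat m w i i = 0 := fun w => by
      simp only [nMat, Matrix.of_apply]
      split_ifs
      · exact Finset.sum_eq_zero fun k _ => if_neg (by omega)
      · rfl
    rw [h0, h0]; ring
  · simp only [Matrix.one_apply_ne hij, zero_add]
    by_cases hi : (i : ℕ) < m
    · rw [nMat_top m v j hi, nMat_top m (-v) j hi]; ring
    · by_cases hj : (j : ℕ) < m
      · simp only [nMat, Matrix.of_apply, if_neg hi, if_pos hj, one_mul, Pi.neg_apply, mul_neg, mul_one,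
          ← Finset.sum_neg_distrib]
        exact Finset.sum_congr rfl fun k _ => by split_ifs <;> simp
      · simp [nMat, hj]

/-- The representation. -/
def rep (m : ℕ) (hm : Even m) : Grp p →* SpecialLinearGroup (Fin (2 * m + 1)) (ZMod p) :=
  SemidirectProduct.lift (uHom p m) (sHom p m hm) fun s => MonoidHom.ext fun v => by
    rcases Int.units_eq_one_or s with rfl | rfl
    · simp [act]
    · show uHom p m _ = sHom p m hm (-1) * uHom p m v * (sHom p m hm (-1))⁻¹
      rw [eq_mul_inv_iff_mul_eq]
      refine Subtype.ext ?_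
      show (1 + nMat m (((-1 : ℤˣ) : ℤ) • Multiplicative.toAdd v)) * sMat m =
        sMat m * (1 + nMat m (Multiplicative.toAdd v))
      rw [sMat_conj]
      simp

theorem exists_brick (hp : p ≠ 2) :
    ∃ (H : Type) (_ : Group H) (_ : Finite H), Nat.card H = 2 * p ^ 3 ∧
      ∀ N : ℕ, ∃ n, N ≤ n ∧ ∃ φ : H →* Matrix.ProjectiveSpecialLinearGroup (Fin n) (ZMod p),
        Function.Injective φ ∧
          Subgroup.centralizer (φ.range : Set (Matrix.ProjectiveSpecialLinearGroup (Fin n) (ZMod p))) = ⊥ := by
  haveI : Finite (Grp p) := Nat.finite_of_card_ne_zero (by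
    rw [card_grp]; exact mul_ne_zero two_ne_zero (pow_ne_zero _ (Fact.out : p.Prime).ne_zero))
  refine ⟨Grp p, inferInstance, inferInstance, card_grp p, fun N => ?_⟩
  set m := 2 * (N + 1) with hmdef
  have hm : Even m := even_two_mul _
  have h2 : (2 : ZMod p) ≠ 0 := by
    intro h
    have : p ∣ 2 := (ZMod.natCast_eq_zero_iff 2 p).mp (by exact_mod_cast h)
    exact hp ((Nat.prime_dvd_prime_iff_eq Fact.out Nat.prime_two).mp this)
  have hscal : ∀ g : SpecialLinearGroup (Fin (2 * m + 1)) (ZMod p),
      g ∈ Subgroup.center (SpecialLinearGroup (Fin (2 * m + 1)) (ZMod p)) ↔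
        ∃ r : ZMod p, g.1 = r • (1 : Matrix _ _ (ZMod p)) := fun g => by
    rw [Matrix.SpecialLinearGroup.mem_center_iff]
    refine ⟨fun ⟨r, _, h⟩ => ⟨r, by rw [← h]; ext i j; simp [Matrix.one_apply, Matrix.diagonal]⟩,
      fun ⟨r, h⟩ => ⟨r, ?_, ?_⟩⟩
    · have := g.2
      rw [h, Matrix.det_smul, Matrix.det_one, mul_one] at this
      exact this
    · rw [h]; ext i j; simp [Matrix.one_apply, Matrix.diagonal]
  refine ⟨2 * m + 1, by omega, (QuotientGroup.mk' _).comp (rep p m hm), ?_, ?_⟩
  · rw [injective_iff_map_eq_one]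
    intro h hh
    obtain ⟨r, hr⟩ := (hscal _).mp ((QuotientGroup.eq_one_iff _).mp hh)
    have hdef : rep p m hm h = uHom p m h.left * sHom p m hm h.right := rfl
    rw [hdef] at hr
    let i0 : Fin (2 * m + 1) := ⟨0, by omega⟩
    let i1 : Fin (2 * m + 1) := ⟨2 * m, by omega⟩
    have hs : h.right = 1 := by
      by_contra hne
      rw [show sHom p m hm h.right = sSL p m hm from if_neg hne] at hr
      replace hr : (1 + nMat m (Multiplicative.toAdd h.left)) * sMat m =
          r • (1 : Matrix _ _ (ZMod p)) := hr
      have e0 := congrFun (congrFun hr i0) i0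
      have e1 := congrFun (congrFun hr i1) i1
      simp only [sMat, Matrix.mul_diagonal, Matrix.add_apply, Matrix.one_apply_eq, Matrix.smul_apply,
        smul_eq_mul, mul_one] at e0 e1
      rw [nMat_top m _ i0 (show (0 : ℕ) < m by omega)] at e0
      simp [i0, show (0 : ℕ) < m by omega] at e0
      simp [i1, nMat, show ¬ 2 * m < m by omega] at e1
      exact h2 (by linear_combination e1 - e0)
    rw [hs, map_one, mul_one] at hr
    replace hr : 1 + nMat m (Multiplicative.toAdd h.left) = r • (1 : Matrix _ _ (ZMod p)) := hr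
    refine SemidirectProduct.ext ?_ hs
    refine Multiplicative.toAdd.injective (funext fun k => ?_)
    have hj : (0 : ℕ) < m := by omega
    have e := congrFun (congrFun hr ⟨m + k, by omega⟩) i0
    have hne : (⟨m + k, by omega⟩ : Fin (2 * m + 1)) ≠ i0 := fun e => by
      have := congrArg Fin.val e
      simp [i0] at this <;> omega
    rw [Matrix.add_apply, Matrix.smul_apply, Matrix.one_apply_ne hne, zero_add, smul_zero] at e
    simp only [nMat, Matrix.of_apply, i0, if_pos hj] at e
    rw [Finset.sum_eq_single k (fun l _ hl => if_neg fun h => hl (Fin.ext (by omega))) (by simp),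
      if_pos (by omega)] at e
    simpa using e
  · rw [eq_bot_iff]
    intro x hx
    obtain ⟨g, rfl⟩ := QuotientGroup.mk'_surjective _ x
    rw [Subgroup.mem_bot]
    refine (QuotientGroup.eq_one_iff _).mpr ((hscal g).mpr ?_)
    have hcomm : ∀ h : Grp p, ∃ c : ZMod p,
        (rep p m hm h).1 * g.1 = c • (g.1 * (rep p m hm h).1) := fun h => by
      have e := Subgroup.mem_centralizer_iff.mp hx _ ⟨h, rfl⟩
      rw [MonoidHom.comp_apply, ← map_mul, ← map_mul, eq_comm] at e
      obtain ⟨z, hz⟩ : ∃ z ∈ Subgroup.center (SpecialLinearGroup (Fin (2 * m + 1)) (ZMod p)),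
          g * rep p m hm h * z = rep p m hm h * g :=
        (QuotientGroup.mk'_eq_mk' _).mp e
      obtain ⟨hz, hzeq⟩ := hz
      obtain ⟨r, hr⟩ := (hscal z).mp hz
      refine ⟨r, ?_⟩
      have e2 := congrArg Subtype.val hzeq
      simp only [Matrix.SpecialLinearGroup.coe_mul, hr, Matrix.mul_smul, Matrix.mul_one] at e2
      exact e2.symm
    have hginv : IsUnit g.1.det := by rw [g.2]; exact isUnit_one
    obtain ⟨c, hc⟩ := hcomm (SemidirectProduct.inr (-1))
    have hneg : sHom p m hm (-1) = sSL p m hm := by
      show (if (-1 : ℤˣ) = 1 then 1 else sSL p m hm) = _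
      rw [if_neg (by decide)]
    rw [show rep p m hm (SemidirectProduct.inr (-1)) = sHom p m hm (-1) from
      SemidirectProduct.lift_inr .., hneg] at hc
    replace hc : sMat m * g.1 = c • (g.1 * sMat m) := hc
    have hc1 : c = 1 := by
      have e := congrArg (fun M => Matrix.trace (M * g.1⁻¹)) hc
      simp only [Matrix.mul_assoc, Matrix.mul_nonsing_inv _ hginv, Matrix.mul_one, Matrix.smul_mul,
        Matrix.trace_smul] at e
      rw [Matrix.trace_mul_comm g.1, Matrix.mul_assoc, Matrix.nonsing_inv_mul _ hginv, Matrix.mul_one] at e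
      have htr : Matrix.trace (sMat (K := ZMod p) m) = 1 := by
        rw [sMat, Matrix.trace_diagonal, Fin.sum_univ_eq_sum_range (fun i => if i < m then (-1 : ZMod p) else 1),
          show 2 * m + 1 = m + (m + 1) by omega, Finset.sum_range_add,
          Finset.sum_congr rfl fun i hi => if_pos (Finset.mem_range.mp hi),
          Finset.sum_congr rfl fun i _ => if_neg (show ¬ m + i < m by omega)]
        simp
      rw [htr, smul_eq_mul, mul_one] at e
      exact e.symm
    rw [hc1, one_smul] at hc
    refine scalar_of_commute (by omega) h2 g.1 hc.symm fun k => ?_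
    obtain ⟨d, hd⟩ := hcomm (SemidirectProduct.inl (Multiplicative.ofAdd (Pi.single k 1)))
    rw [show rep p m hm (SemidirectProduct.inl (Multiplicative.ofAdd (Pi.single k 1))) =
      uHom p m (Multiplicative.ofAdd (Pi.single k 1)) from SemidirectProduct.lift_inl ..] at hd
    replace hd : (1 + nMat m (Pi.single k 1)) * g.1 = d • (g.1 * (1 + nMat m (Pi.single k 1))) := hd
    -- the scalar is one: look at an entry in the top rows
    let i0 : Fin (2 * m + 1) := ⟨0, by omega⟩
    obtain ⟨j, hj⟩ : ∃ j, g.1 i0 j ≠ 0 := by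
      by_contra hall
      push Not at hall
      exact hginv.ne_zero (Matrix.det_eq_zero_of_row_eq_zero i0 hall)
    have hjm : (j : ℕ) < m := by
      by_contra hjm
      have e := congrFun (congrFun hc i0) j
      simp only [sMat, Matrix.diagonal_mul, Matrix.mul_diagonal, if_pos (show ((i0 : ℕ) < m) by simp [i0]; omega),
        if_neg hjm] at e
      exact hj ((mul_eq_zero.mp (show (2 : ZMod p) * g.1 i0 j = 0 by linear_combination -e)).resolve_left h2)
    have hd1 : d = 1 := by
      have e := congrFun (congrFun hd i0) j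
      have hl : ∀ l, g.1 i0 l * nMat m (Pi.single k 1) l j = 0 := fun l => by
        by_cases hl : (l : ℕ) < m
        · rw [nMat_top m _ j hl, mul_zero]
        · have e := congrFun (congrFun hc i0) l
          simp only [sMat, Matrix.diagonal_mul, Matrix.mul_diagonal,
            if_pos (show ((i0 : ℕ) < m) by simp [i0]; omega), if_neg hl] at e
          rw [(mul_eq_zero.mp (show (2 : ZMod p) * g.1 i0 l = 0 by linear_combination -e)).resolve_left h2,
            zero_mul]
      rw [Matrix.add_mul, Matrix.one_mul, Matrix.mul_add, Matrix.mul_one, Matrix.smul_apply,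
        Matrix.add_apply, Matrix.add_apply, Matrix.mul_apply, Matrix.mul_apply,
        Finset.sum_eq_zero (fun l _ => hl l),
        Finset.sum_eq_zero (fun l _ => by rw [nMat_top m _ l (by simp [i0]; omega), zero_mul]),
        add_zero, smul_eq_mul] at e
      exact (mul_right_cancel₀ hj (by rw [one_mul]; exact e)).symm
    rw [hd1, one_smul, Matrix.add_mul, Matrix.mul_add, Matrix.one_mul, Matrix.mul_one] at hd
    exact (add_left_cancel hd).symm

end Group

end Cfsg.Agent.KnownB.Brick
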